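import Cfsg.Prelude.Def_Blocks
import Mathlib.GroupTheory.Transfer
import Mathlib.GroupTheory.Solvable
import Mathlib.GroupTheory.SchurZassenhaus
import Cfsg.Agent.Blocks.CyclicClasses
set_option linter.all false

/-!
# Groups with a self-centralizing element of prime order: group theory

`x` of prime order `p` with `C_G(x) = ⟨x⟩`, `t` the number of classes of elements of order `p`,
`1 + n p` the number of subgroups of order `p`.

* `exists_sylow`: `⟨x⟩` is a Sylow `p`-subgroup;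
* `card_subgroups`: the number of subgroups of order `p` is the index of `N = N_G(⟨x⟩)`;
* `card_normalizer`, `t_mul`: `|N| = p q` and `t q = p - 1`;
* `commutator_le_of_dvd`: a normal subgroup of order divisible by `p` contains `G'`;
* `inf_normalizer`: a normal `p'`-subgroup meets `N` trivially;
* `mem_sup_of_comm`: `C_{G/S}(x) = ⟨x⟩` for a normal `p'`-subgroup `S`.
-/

set_option autoImplicit false
set_option linter.unusedSectionVars false

namespace Cfsg.Agent.H608.SelfCent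

open Cfsg

variable {G : Type*} [Group G] [Finite G] {p : ℕ} [hp : Fact p.Prime] {x : G}

/-- `⟨x⟩` is a Sylow `p`-subgroup. -/
theorem exists_sylow (hx : orderOf x = p)
    (hC : Subgroup.centralizer ({x} : Set G) = Subgroup.zpowers x) :
    ∃ P : Sylow p G, (P : Subgroup G) = Subgroup.zpowers x := by
  have hcard : Nat.card (Subgroup.zpowers x) = p := by rw [Nat.card_zpowers, hx]
  have hpg : IsPGroup p (Subgroup.zpowers x) := IsPGroup.of_card (n := 1) (by rw [hcard, pow_one])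
  obtain ⟨P, hP⟩ := hpg.exists_le_sylow
  refine ⟨P, le_antisymm ?_ hP⟩
  have hxP : x ∈ (P : Subgroup G) := hP (Subgroup.mem_zpowers x)
  have hx1 : x ≠ 1 := by
    rintro rfl
    rw [orderOf_one] at hx
    exact hp.out.one_lt.ne hx
  have : Nontrivial (P : Subgroup G) :=
    ⟨⟨⟨x, hxP⟩, 1, fun h => hx1 (congrArg Subtype.val h)⟩⟩
  have hnt : Nontrivial (Subgroup.center (P : Subgroup G)) := P.isPGroup'.center_nontrivial
  obtain ⟨z, hz⟩ := exists_ne (1 : Subgroup.center (P : Subgroup G))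
  have hz1 : ((z : (P : Subgroup G)) : G) ≠ 1 := fun h => hz (Subtype.ext (Subtype.ext h))
  have hzc : ∀ y ∈ (P : Subgroup G), y * ((z : (P : Subgroup G)) : G) =
      ((z : (P : Subgroup G)) : G) * y := by
    intro y hy
    exact congrArg Subtype.val (Subgroup.mem_center_iff.1 z.2 ⟨y, hy⟩)
  have hzx : ((z : (P : Subgroup G)) : G) ∈ Subgroup.zpowers x := by
    rw [← hC, Subgroup.mem_centralizer_singleton_iff]
    exact (hzc x hxP).symm
  have hgen : Subgroup.zpowers ((z : (P : Subgroup G)) : G) = Subgroup.zpowers x := by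
    refine Subgroup.eq_of_le_of_card_ge (Subgroup.zpowers_le.2 hzx) ?_
    rw [hcard, Nat.card_zpowers]
    have h1 : orderOf ((z : (P : Subgroup G)) : G) ∣ p := by
      have := Subgroup.card_dvd_of_le (Subgroup.zpowers_le.2 hzx)
      rwa [hcard, Nat.card_zpowers] at this
    rcases (Nat.dvd_prime hp.out).1 h1 with h | h
    · exact absurd (orderOf_eq_one_iff.1 h) hz1
    · exact h.ge
  intro y hy
  rw [← hC, Subgroup.mem_centralizer_singleton_iff]
  have hxz : x ∈ Subgroup.zpowers ((z : (P : Subgroup G)) : G) := by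
    rw [hgen]; exact Subgroup.mem_zpowers x
  obtain ⟨k, hk⟩ := Subgroup.mem_zpowers_iff.1 hxz
  have h2 : Commute y ((z : (P : Subgroup G)) : G) := hzc y hy
  have h3 := (h2.zpow_right k).eq
  rw [hk] at h3
  exact h3

theorem card_sylow (hx : orderOf x = p) {P : Sylow p G}
    (hP : (P : Subgroup G) = Subgroup.zpowers x) : Nat.card P = p := by
  have : Nat.card (P : Subgroup G) = p := by rw [hP, Nat.card_zpowers, hx]
  exact this

/-- A subgroup of order `p` is a Sylow `p`-subgroup. -/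
theorem sylow_of_card {P : Sylow p G} (hP : Nat.card P = p) {H : Subgroup G} (hH : Nat.card H = p) :
    ∃ Q : Sylow p G, (Q : Subgroup G) = H := by
  have hpg : IsPGroup p H := IsPGroup.of_card (n := 1) (by rw [hH, pow_one])
  obtain ⟨Q, hQ⟩ := hpg.exists_le_sylow
  refine ⟨Q, (Subgroup.eq_of_le_of_card_ge hQ ?_).symm⟩
  have h1 : Nat.card (Q : Subgroup G) = Nat.card (P : Subgroup G) :=
    Nat.card_congr (Sylow.equiv Q P).toEquiv
  rw [h1, hH]
  exact le_of_eq hP

/-- The number of subgroups of order `p` is the index of the normalizer of `P`. -/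
theorem card_subgroups {P : Sylow p G} (hP : Nat.card P = p) :
    Nat.card {H : Subgroup G // Nat.card H = p} =
      (Subgroup.normalizer ((P : Subgroup G) : Set G)).index := by
  have h1 := Sylow.card_eq_index_normalizer P
  rw [P.coe_coe, ← h1]
  refine (Nat.card_congr (Equiv.ofBijective
    (fun Q : Sylow p G => (⟨(Q : Subgroup G), ?_⟩ : {H : Subgroup G // Nat.card H = p})) ⟨?_, ?_⟩)).symm
  · exact (Nat.card_congr (Sylow.equiv Q P).toEquiv).trans hP
  · intro Q Q' h
    exact Sylow.ext (congrArg Subtype.val h)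
  · rintro ⟨H, hH⟩
    obtain ⟨Q, hQ⟩ := sylow_of_card hP hH
    exact ⟨Q, Subtype.ext hQ⟩

/-- An element of order `p` is conjugate into `P`. -/
theorem exists_conj_mem {P : Sylow p G} (hP : Nat.card P = p) {g : G} (hg : orderOf g = p) :
    ∃ c : G, c * g * c⁻¹ ∈ P := by
  obtain ⟨Q, hQ⟩ := sylow_of_card hP (H := Subgroup.zpowers g) (by rw [Nat.card_zpowers, hg])
  obtain ⟨c, hc⟩ := MulAction.exists_smul_eq G Q P
  refine ⟨c, ?_⟩
  rw [← hc]
  rw [← SetLike.mem_coe, ← Sylow.coe_coe, Sylow.coe_subgroup_smul, hQ, SetLike.mem_coe,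
    ← MulAut.conj_apply]
  exact Subgroup.smul_mem_pointwise_smul _ _ _ (Subgroup.mem_zpowers g)

/-- The classes of elements of order `p` are those of the nontrivial elements of `P`. -/
theorem card_classes {P : Sylow p G} (hP : Nat.card P = p) :
    Nat.card {C : ConjClasses G // ∃ g ∈ C.carrier, orderOf g = p} =
      Nat.card (Cfsg.Agent.Blocks.CyclicClasses.Cls P) := by
  refine Nat.card_congr (Equiv.subtypeEquivRight fun C => ?_)
  constructor
  · rintro ⟨g, hg, hgp⟩
    obtain ⟨c, hc⟩ := exists_conj_mem hP hgp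
    refine ⟨c * g * c⁻¹, hc, ?_, ?_⟩
    · intro h
      have h1 : g = 1 := by
        have := congrArg (fun y => c⁻¹ * y * c) h
        simpa [mul_assoc] using this
      rw [h1, orderOf_one] at hgp
      exact hp.out.one_lt.ne hgp
    · rw [← ConjClasses.mem_carrier_iff_mk_eq.1 hg, ConjClasses.mk_eq_mk_iff_isConj]
      exact isConj_comm.1 (isConj_iff.2 ⟨c, rfl⟩)
  · rintro ⟨y, hy, hy1, rfl⟩
    refine ⟨y, ConjClasses.mem_carrier_mk, ?_⟩
    have h1 : orderOf y ∣ p := by
      rw [← hP]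
      exact Subgroup.orderOf_dvd_natCard _ hy
    rcases (Nat.dvd_prime hp.out).1 h1 with h | h
    · exact absurd (orderOf_eq_one_iff.1 h) hy1
    · exact h

section

variable (hx : orderOf x = p) (hC : Subgroup.centralizer ({x} : Set G) = Subgroup.zpowers x)
include hx hC

theorem centralizer_zpowers :
    Subgroup.centralizer ((Subgroup.zpowers x : Subgroup G) : Set G) = Subgroup.zpowers x := by
  conv_rhs => rw [← hC]
  ext y
  rw [Subgroup.mem_centralizer_singleton_iff, Subgroup.mem_centralizer_iff]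
  constructor
  · intro h
    exact (h x (Subgroup.mem_zpowers x)).symm
  · rintro h z hz
    obtain ⟨k, rfl⟩ := Subgroup.mem_zpowers_iff.1 hz
    have h1 : Commute x y := h.symm
    exact (h1.zpow_left k).eq

/-- `x` is not `1`. -/
theorem ne_one : x ≠ 1 := by
  rintro rfl
  rw [orderOf_one] at hx
  exact hp.out.one_lt.ne hx

/-- The order of `N = N_G(⟨x⟩)` is `p q` with `t q = p - 1`. -/
theorem exists_q : ∃ q : ℕ, Nat.card (Subgroup.normalizer ((Subgroup.zpowers x : Subgroup G) : Set G))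
      = p * q ∧
    Nat.card {C : ConjClasses G // ∃ g ∈ C.carrier, orderOf g = p} * q = p - 1 ∧
    Nat.card {H : Subgroup G // Nat.card H = p} =
      (Subgroup.normalizer ((Subgroup.zpowers x : Subgroup G) : Set G)).index := by
  obtain ⟨P, hP⟩ := exists_sylow hx hC
  have hPc := card_sylow hx hP
  refine ⟨(Subgroup.centralizer ((P : Subgroup G) : Set G)).relIndex
        (Subgroup.normalizer ((P : Subgroup G) : Set G)), ?_, ?_, ?_⟩
  · rw [hP, centralizer_zpowers hx hC]
    have h1 := Subgroup.relIndex_mul_relIndex (⊥ : Subgroup G) (Subgroup.zpowers x)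
      (Subgroup.normalizer ((Subgroup.zpowers x : Subgroup G) : Set G)) bot_le
      Subgroup.le_normalizer
    rw [Subgroup.relIndex_bot_left, Subgroup.relIndex_bot_left, Nat.card_zpowers, hx] at h1
    exact h1.symm
  · rw [card_classes hPc]
    exact Cfsg.Agent.Blocks.CyclicClasses.card_cls P hPc
  · rw [card_subgroups hPc, hP]

/-- Two conjugates of `x` lying in `⟨x⟩`. -/
theorem mem_normalizer_of_conj_mem {g : G} (hg : g * x * g⁻¹ ∈ Subgroup.zpowers x) :
    g ∈ Subgroup.normalizer ((Subgroup.zpowers x : Subgroup G) : Set G) := by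
  obtain ⟨P, hP⟩ := exists_sylow hx hC
  have hPc := card_sylow hx hP
  have := Cfsg.Agent.Blocks.CyclicClasses.mem_normalizer_of_conj P hPc (x := x) (g := g)
    (by change x ∈ (P : Subgroup G); rw [hP]; exact Subgroup.mem_zpowers x) (ne_one hx hC)
    (by change g * x * g⁻¹ ∈ (P : Subgroup G); rw [hP]; exact hg)
  rwa [hP] at this

/-- Commutators of elements of the normalizer lie in `⟨x⟩`. -/
theorem commutator_mem {a b : G}
    (ha : a ∈ Subgroup.normalizer ((Subgroup.zpowers x : Subgroup G) : Set G))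
    (hb : b ∈ Subgroup.normalizer ((Subgroup.zpowers x : Subgroup G) : Set G)) :
    a * b * a⁻¹ * b⁻¹ ∈ Subgroup.zpowers x := by
  rw [← hC, Subgroup.mem_centralizer_singleton_iff]
  obtain ⟨k, hk⟩ := Subgroup.mem_zpowers_iff.1
    ((Subgroup.mem_normalizer_iff.1 ha x).1 (Subgroup.mem_zpowers x))
  obtain ⟨l, hl⟩ := Subgroup.mem_zpowers_iff.1
    ((Subgroup.mem_normalizer_iff.1 hb x).1 (Subgroup.mem_zpowers x))
  obtain ⟨k', hk'⟩ := Subgroup.mem_zpowers_iff.1
    ((Subgroup.mem_normalizer_iff.1 (Subgroup.inv_mem _ ha) x).1 (Subgroup.mem_zpowers x))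
  obtain ⟨l', hl'⟩ := Subgroup.mem_zpowers_iff.1
    ((Subgroup.mem_normalizer_iff.1 (Subgroup.inv_mem _ hb) x).1 (Subgroup.mem_zpowers x))
  rw [inv_inv] at hk' hl'
  have e1 : x = x ^ (k * k') := by
    calc x = a * (a⁻¹ * x * a) * a⁻¹ := by group
      _ = a * x ^ k' * a⁻¹ := by rw [hk']
      _ = (a * x * a⁻¹) ^ k' := by rw [conj_zpow]
      _ = x ^ (k * k') := by rw [← hk, zpow_mul]
  have e2 : x = x ^ (l * l') := by
    calc x = b * (b⁻¹ * x * b) * b⁻¹ := by group
      _ = b * x ^ l' * b⁻¹ := by rw [hl']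
      _ = (b * x * b⁻¹) ^ l' := by rw [conj_zpow]
      _ = x ^ (l * l') := by rw [← hl, zpow_mul]
  have e3 : (a * b * a⁻¹ * b⁻¹) * x * (a * b * a⁻¹ * b⁻¹)⁻¹ = x := by
    calc (a * b * a⁻¹ * b⁻¹) * x * (a * b * a⁻¹ * b⁻¹)⁻¹ =
        a * (b * (a⁻¹ * (b⁻¹ * x * b) * a) * b⁻¹) * a⁻¹ := by group
      _ = a * (b * (a⁻¹ * x ^ l' * a⁻¹⁻¹) * b⁻¹) * a⁻¹ := by rw [hl', inv_inv]
      _ = a * (b * (a⁻¹ * x * a⁻¹⁻¹) ^ l' * b⁻¹) * a⁻¹ := by rw [conj_zpow]
      _ = a * (b * (x ^ k') ^ l' * b⁻¹) * a⁻¹ := by rw [inv_inv, hk']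
      _ = a * ((b * x * b⁻¹) ^ k') ^ l' * a⁻¹ := by rw [← zpow_mul, ← zpow_mul, conj_zpow]
      _ = a * ((x ^ l) ^ k') ^ l' * a⁻¹ := by rw [hl]
      _ = (((a * x * a⁻¹) ^ l) ^ k') ^ l' := by
        rw [← zpow_mul, ← zpow_mul, ← zpow_mul, ← zpow_mul, conj_zpow]
      _ = (((x ^ k) ^ l) ^ k') ^ l' := by rw [hk]
      _ = (x ^ (k * k')) ^ (l * l') := by
        rw [← zpow_mul, ← zpow_mul, ← zpow_mul, ← zpow_mul]; congr 1; ring
      _ = x := by rw [← e1, ← e2]
  calc a * b * a⁻¹ * b⁻¹ * x = (a * b * a⁻¹ * b⁻¹) * x * (a * b * a⁻¹ * b⁻¹)⁻¹ *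
        (a * b * a⁻¹ * b⁻¹) := by group
    _ = x * (a * b * a⁻¹ * b⁻¹) := by rw [e3]

/-- A normal subgroup of order divisible by `p` contains `x`. -/
theorem mem_of_dvd {M : Subgroup G} [M.Normal] (hM : p ∣ Nat.card M) : x ∈ M := by
  obtain ⟨P, hP⟩ := exists_sylow hx hC
  have hPc := card_sylow hx hP
  obtain ⟨y, hy⟩ := exists_prime_orderOf_dvd_card' p hM
  obtain ⟨c, hc⟩ := exists_conj_mem hPc (g := (y : G)) (by rw [Subgroup.orderOf_coe, hy])
  have h1 : c * (y : G) * c⁻¹ ∈ M := Subgroup.Normal.conj_mem inferInstance _ y.2 c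
  have h2 : c * (y : G) * c⁻¹ ≠ 1 := by
    intro h
    have h3 : (y : G) = 1 := by
      have := congrArg (fun z => c⁻¹ * z * c) h
      simpa [mul_assoc] using this
    have h4 : orderOf (y : G) = 1 := by rw [h3, orderOf_one]
    rw [Subgroup.orderOf_coe, hy] at h4
    exact hp.out.one_lt.ne' h4
  have h3 := Cfsg.Agent.Blocks.CyclicOrtho.zpowers_eq P hPc hc h2
  have h4 : x ∈ Subgroup.zpowers (c * (y : G) * c⁻¹) := by
    rw [h3, hP]; exact Subgroup.mem_zpowers x
  exact (Subgroup.zpowers_le.2 h1) h4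

/-- Frattini: a normal subgroup containing `x` together with the normalizer generates `G`. -/
theorem exists_mul {M : Subgroup G} [M.Normal] (hM : x ∈ M) (g : G) :
    ∃ m ∈ M, ∃ n ∈ Subgroup.normalizer ((Subgroup.zpowers x : Subgroup G) : Set G), g = m * n := by
  obtain ⟨P, hP⟩ := exists_sylow hx hC
  have h1 := Sylow.normalizer_sup_eq_top' (N := M) P (by
    rw [hP]; exact Subgroup.zpowers_le.2 hM)
  have h2 : g ∈ M ⊔ Subgroup.normalizer ((Subgroup.zpowers x : Subgroup G) : Set G) := by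
    rw [← P.coe_coe, hP, sup_comm] at h1
    rw [h1]; trivial
  obtain ⟨m, hm, n, hn, rfl⟩ := Subgroup.mem_sup_of_normal_left.1 h2
  exact ⟨m, hm, n, hn, rfl⟩

/-- A normal subgroup of order divisible by `p` contains the commutator subgroup. -/
theorem commutator_le_of_mem {M : Subgroup G} [M.Normal] (hM : x ∈ M) : commutator G ≤ M := by
  rw [commutator_def, Subgroup.commutator_le]
  intro a _ b _
  obtain ⟨m, hm, n, hn, rfl⟩ := exists_mul hx hC hM a
  obtain ⟨m', hm', n', hn', rfl⟩ := exists_mul hx hC hM b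
  have h1 := (Subgroup.zpowers_le.2 hM) (commutator_mem hx hC hn hn')
  rw [← QuotientGroup.eq_one_iff] at h1 ⊢
  rw [commutatorElement_def]
  have e1 : ((m : G) : G ⧸ M) = 1 := (QuotientGroup.eq_one_iff _).2 hm
  have e2 : ((m' : G) : G ⧸ M) = 1 := (QuotientGroup.eq_one_iff _).2 hm'
  simp only [QuotientGroup.mk_mul, QuotientGroup.mk_inv, e1, e2, one_mul] at h1 ⊢
  exact h1

/-- A normal `p'`-subgroup meets `⟨x⟩` trivially. -/
theorem inf_zpowers {S : Subgroup G} (hS : ¬ p ∣ Nat.card S) : S ⊓ Subgroup.zpowers x = ⊥ := by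
  refine disjoint_iff.1 (Subgroup.disjoint_of_coprime_natCard ?_)
  rw [Nat.card_zpowers, hx]
  exact ((Nat.Prime.coprime_iff_not_dvd hp.out).2 hS).symm

/-- A normal `p'`-subgroup meets the normalizer trivially. -/
theorem inf_normalizer {S : Subgroup G} [S.Normal] (hS : ¬ p ∣ Nat.card S) :
    S ⊓ Subgroup.normalizer ((Subgroup.zpowers x : Subgroup G) : Set G) = ⊥ := by
  have h0 := inf_zpowers hx hC hS
  rw [eq_bot_iff]
  rintro s ⟨hs, hsN⟩
  have h1 : s * x * s⁻¹ ∈ Subgroup.zpowers x :=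
    (Subgroup.mem_normalizer_iff.1 hsN x).1 (Subgroup.mem_zpowers x)
  have h2 : s * x * s⁻¹ * x⁻¹ ∈ S ⊓ Subgroup.zpowers x := by
    refine ⟨?_, Subgroup.mul_mem _ h1 (Subgroup.inv_mem _ (Subgroup.mem_zpowers x))⟩
    have h3 : x * s⁻¹ * x⁻¹ ∈ S := Subgroup.Normal.conj_mem inferInstance _ (S.inv_mem hs) x
    have h4 := S.mul_mem hs h3
    rwa [show s * (x * s⁻¹ * x⁻¹) = s * x * s⁻¹ * x⁻¹ by group] at h4
  rw [h0, Subgroup.mem_bot] at h2
  have h3 : s ∈ Subgroup.zpowers x := by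
    rw [← hC, Subgroup.mem_centralizer_singleton_iff]
    calc s * x = (s * x * s⁻¹ * x⁻¹) * x * s := by group
      _ = x * s := by rw [h2, one_mul]
  have h4 : s ∈ S ⊓ Subgroup.zpowers x := ⟨hs, h3⟩
  rw [h0] at h4
  exact h4

/-- Every element of a normal `p'`-subgroup `S` is a commutator `[s, x]` with `s ∈ S`. -/
theorem exists_commutator {S : Subgroup G} [S.Normal] (hS : ¬ p ∣ Nat.card S) {y : G} (hy : y ∈ S) :
    ∃ s ∈ S, s * x * s⁻¹ * x⁻¹ = y := by
  have h0 := inf_zpowers hx hC hS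
  have hmem : ∀ s : S, (s : G) * x * (s : G)⁻¹ * x⁻¹ ∈ S := by
    intro s
    have h3 : x * (s : G)⁻¹ * x⁻¹ ∈ S :=
      Subgroup.Normal.conj_mem inferInstance _ (S.inv_mem s.2) x
    have h4 := S.mul_mem s.2 h3
    rwa [show (s : G) * (x * (s : G)⁻¹ * x⁻¹) = (s : G) * x * (s : G)⁻¹ * x⁻¹ by group] at h4
  have hinj : Function.Injective (fun s : S => (⟨(s : G) * x * (s : G)⁻¹ * x⁻¹, hmem s⟩ : S)) := by
    intro s t hst
    have h1 : (s : G) * x * (s : G)⁻¹ * x⁻¹ = (t : G) * x * (t : G)⁻¹ * x⁻¹ :=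
      congrArg Subtype.val hst
    have h2 : (t : G)⁻¹ * s ∈ S ⊓ Subgroup.zpowers x := by
      refine Subgroup.mem_inf.2 ⟨S.mul_mem (S.inv_mem t.2) s.2, ?_⟩
      rw [← hC, Subgroup.mem_centralizer_singleton_iff]
      have h3 : (s : G) * x * (s : G)⁻¹ = (t : G) * x * (t : G)⁻¹ := mul_right_cancel h1
      calc (t : G)⁻¹ * s * x = (t : G)⁻¹ * ((s : G) * x * (s : G)⁻¹) * s := by group
        _ = (t : G)⁻¹ * ((t : G) * x * (t : G)⁻¹) * s := by rw [h3]
        _ = x * ((t : G)⁻¹ * s) := by group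
    rw [h0, Subgroup.mem_bot, inv_mul_eq_one] at h2
    exact Subtype.ext h2.symm
  obtain ⟨s, hs⟩ := (Finite.injective_iff_surjective.1 hinj) ⟨y, hy⟩
  exact ⟨s, s.2, congrArg Subtype.val hs⟩

/-- `C_{G/S}(x) = ⟨x⟩` for a normal `p'`-subgroup `S`. -/
theorem mem_sup_of_comm {S : Subgroup G} [S.Normal] (hS : ¬ p ∣ Nat.card S) {g : G}
    (hg : g * x * g⁻¹ * x⁻¹ ∈ S) : g ∈ S ⊔ Subgroup.zpowers x := by
  obtain ⟨s, hs, hsx⟩ := exists_commutator hx hC hS hg
  have h1 : s⁻¹ * g ∈ Subgroup.zpowers x := by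
    rw [← hC, Subgroup.mem_centralizer_singleton_iff]
    have h3 : s * x * s⁻¹ = g * x * g⁻¹ := mul_right_cancel hsx
    calc s⁻¹ * g * x = s⁻¹ * (g * x * g⁻¹) * g := by group
      _ = s⁻¹ * (s * x * s⁻¹) * g := by rw [h3]
      _ = x * (s⁻¹ * g) := by group
  have h2 : g = s * (s⁻¹ * g) := by group
  rw [h2]
  exact Subgroup.mul_mem_sup hs h1

/-- The order of `S ⟨x⟩`. -/
theorem card_sup {S : Subgroup G} [S.Normal] (hS : ¬ p ∣ Nat.card S) :
    Nat.card (S ⊔ Subgroup.zpowers x : Subgroup G) = p * Nat.card S := by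
  have h0 := inf_zpowers hx hC hS
  have h1 : Nat.card S * S.relIndex (S ⊔ Subgroup.zpowers x) =
      Nat.card (S ⊔ Subgroup.zpowers x : Subgroup G) := by
    rw [← Subgroup.relIndex_bot_left, ← Subgroup.relIndex_bot_left]
    exact Subgroup.relIndex_mul_relIndex _ _ _ bot_le le_sup_left
  rw [← h1, Subgroup.relIndex_sup_left, ← Subgroup.inf_relIndex_right, h0,
    Subgroup.relIndex_bot_left, Nat.card_zpowers, hx, mul_comm]

/-- If a normal `p'`-subgroup `S` satisfies `G = S N_G(⟨x⟩)` then its order is the index of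
`N_G(⟨x⟩)`. -/
theorem card_eq_index {S : Subgroup G} [S.Normal] (hS : ¬ p ∣ Nat.card S)
    (h : S ⊔ Subgroup.normalizer ((Subgroup.zpowers x : Subgroup G) : Set G) = ⊤) :
    Nat.card S = (Subgroup.normalizer ((Subgroup.zpowers x : Subgroup G) : Set G)).index := by
  set N := Subgroup.normalizer ((Subgroup.zpowers x : Subgroup G) : Set G) with hN
  have h0 : S ⊓ N = ⊥ := inf_normalizer hx hC hS
  have h1 : S.index = Nat.card N := by
    rw [← Subgroup.relIndex_top_right, ← h, Subgroup.relIndex_sup_left,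
      ← Subgroup.inf_relIndex_right, h0, Subgroup.relIndex_bot_left]
  have h2 := S.card_mul_index
  have h3 := N.card_mul_index
  rw [h1, ← h3, mul_comm] at h2
  exact Nat.eq_of_mul_eq_mul_left Nat.card_pos h2

end

end Cfsg.Agent.H608.SelfCent
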